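import Mathlib
import Cfsg.Agent.Lib.Helper58.ZStarGroup
import Cfsg.Agent.Lib.Helper14.PConstrained
import Cfsg.Agent.Lib.Helper14.PSolvable
import Cfsg.Agent.S1181

set_option autoImplicit false

namespace Cfsg.Agent.Lib.Helper58

open Cfsg.Agent.Lib.Helper25 Cfsg.Agent.Lib.Helper14

universe u

/-- Conclusion of the `Z*`-theorem: `[x, G] ≤ O(G)`. -/
def ZConcl (G : Type u) [Group G] (x : G) : Prop :=
  ∀ g : G, x * g * x⁻¹ * g⁻¹ ∈ Cfsg.pPrimeCore 2 G

/-- Induction hypothesis: the `Z*`-theorem for all groups of order `< n` (in the universe `u`). -/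
def ZIH (n : ℕ) : Prop :=
  ∀ (H : Type u) [Group H] [Finite H], Nat.card H < n →
    ∀ x : H, Cfsg.IsIsolatedInvolution x → ZConcl H x

theorem card_quotient_lt {G : Type u} [Group G] [Finite G] (N : Subgroup G) (hN : N ≠ ⊥) :
    Nat.card (G ⧸ N) < Nat.card G := by
  have h1 := Subgroup.card_eq_card_quotient_mul_card_subgroup N
  have h2 : 1 < Nat.card N := N.one_lt_card_iff_ne_bot.mpr hN
  have h3 : 0 < Nat.card (G ⧸ N) := Nat.card_pos
  rw [h1]
  nlinarith

theorem card_subgroup_lt {G : Type u} [Group G] [Finite G] (N : Subgroup G) (hN : N ≠ ⊤) :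
    Nat.card N < Nat.card G := by
  have h1 := N.card_mul_index
  have h2 : N.index ≠ 1 := fun h => hN (Subgroup.index_eq_one.mp h)
  have h3 : N.index ≠ 0 := N.index_ne_zero_of_finite
  have h4 : 0 < Nat.card N := Nat.card_pos
  have h5 : 2 ≤ N.index := by omega
  rw [← h1]
  nlinarith

theorem not_mem_of_coprime_two {G : Type u} [Group G] [Finite G] {x : G} (hx : orderOf x = 2)
    (N : Subgroup G) (hN : (Nat.card N).Coprime 2) : x ∉ N := by
  intro h
  have h1 : orderOf x ∣ Nat.card N := by
    have := orderOf_dvd_natCard (⟨x, h⟩ : N)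
    rwa [Subgroup.orderOf_mk] at this
  rw [hx] at h1
  have := Nat.Coprime.eq_one_of_dvd hN.symm h1
  omega

/-- Reduction to `O(G) = 1`. -/
theorem zstar_reduce_core {G : Type u} [Group G] [Finite G] (ih : ZIH.{u} (Nat.card G)) (x : G)
    (hx : Cfsg.IsIsolatedInvolution x) (hO : Cfsg.pPrimeCore 2 G ≠ ⊥) : ZConcl G x := by
  intro g
  have hxN : x ∉ Cfsg.pPrimeCore 2 G := not_mem_of_coprime_two hx.1 _ card_pPrimeCore_coprime
  have hiso := (Cfsg.Agent.S1181.result x hx (Cfsg.pPrimeCore 2 G) hxN).2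
  have h1 := ih (G ⧸ Cfsg.pPrimeCore 2 G) (card_quotient_lt _ hO) _ hiso (QuotientGroup.mk g)
  rw [pPrimeCore_quotient_pPrimeCore, Subgroup.mem_bot] at h1
  rw [← QuotientGroup.eq_one_iff]
  exact h1

theorem mem_zpowers_of_orderOf_two {G : Type u} [Group G] {w y : G} (hw : orderOf w = 2)
    (hy : y ∈ Subgroup.zpowers w) : y = 1 ∨ y = w := by
  obtain ⟨i, rfl⟩ := Subgroup.mem_zpowers_iff.mp hy
  rw [← zpow_mod_orderOf, hw]
  rcases Int.emod_two_eq i with h | h
  · left; rw [show ((2 : ℕ) : ℤ) = 2 from rfl, h, zpow_zero]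
  · right; rw [show ((2 : ℕ) : ℤ) = 2 from rfl, h, zpow_one]

theorem comm_eq_mul_conj {G : Type u} [Group G] {x : G} (hx : Cfsg.IsIsolatedInvolution x) (g : G) :
    x * g * x⁻¹ * g⁻¹ = x * (g * x * g⁻¹) := by
  rw [isolated_inv hx]; group

/-- If `O(G) = 1` and `G` has a central involution then an isolated involution is central. -/
theorem zstar_central_invol {G : Type u} [Group G] [Finite G] (ih : ZIH.{u} (Nat.card G)) (x : G)
    (hx : Cfsg.IsIsolatedInvolution x) (hO : Cfsg.pPrimeCore 2 G = ⊥) (w : G) (hw : orderOf w = 2)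
    (hwc : w ∈ Subgroup.center G) : ∀ g : G, x * g * x⁻¹ * g⁻¹ = 1 := by
  intro g
  by_cases hxw : x = w
  · have := (Subgroup.mem_center_iff.mp hwc) g
    rw [hxw, ← this]; group
  set W := Subgroup.zpowers w with hW
  have hWc : W ≤ Subgroup.center G := by rw [hW, Subgroup.zpowers_le]; exact hwc
  have hWn : W.Normal := by
    constructor
    intro n hn y
    have := (Subgroup.mem_center_iff.mp (hWc hn)) y
    rw [this, mul_assoc, mul_inv_cancel, mul_one]
    exact hn
  have hWcard : Nat.card W = 2 := by rw [hW, Nat.card_zpowers, hw]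
  have hWbot : W ≠ ⊥ := by
    intro h
    rw [h] at hWcard
    simp at hWcard
  have hxW : x ∉ W := by
    intro h
    rcases mem_zpowers_of_orderOf_two hw h with h1 | h1
    · exact isolated_ne_one hx h1
    · exact hxw h1
  have hiso := (Cfsg.Agent.S1181.result x hx W hxW).2
  have h1 := ih (G ⧸ W) (card_quotient_lt _ hWbot) _ hiso (QuotientGroup.mk g)
  set L := (Cfsg.pPrimeCore 2 (G ⧸ W)).comap (QuotientGroup.mk' W) with hL
  have hLn : L.Normal := inferInstance
  have hcL : x * g * x⁻¹ * g⁻¹ ∈ L := h1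
  have hWL : W ≤ L := le_comap_mk' W _
  have hLW : L ≤ W := by
    have hcen : W.subgroupOf L ≤ Subgroup.center L := by
      intro y hy
      rw [Subgroup.mem_center_iff]
      intro z
      exact Subtype.ext ((Subgroup.mem_center_iff.mp (hWc hy)) z)
    have hidx : (W.subgroupOf L).index = Nat.card (Cfsg.pPrimeCore 2 (G ⧸ W)) :=
      relIndex_comap_mk' W _
    have hcard' : Nat.card (W.subgroupOf L) = 2 := by
      rw [Nat.card_congr (Subgroup.subgroupOfEquivOfLe hWL).toEquiv, hWcard]
    have hcop : (Nat.card (W.subgroupOf L)).Coprime (W.subgroupOf L).index := by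
      rw [hidx, hcard']
      exact (card_pPrimeCore_coprime (p := 2) (G := G ⧸ W)).symm
    obtain ⟨K, hKchar, hKcard, hKdec⟩ := exists_characteristic_complement_of_central _ hcen hcop
    have hKbot : K = ⊥ := by
      have h2 : K.map L.subtype ≤ Cfsg.pPrimeCore 2 G := by
        apply le_pPrimeCore inferInstance
        rw [Subgroup.card_map_of_injective L.subtype_injective, hKcard, hidx]
        exact card_pPrimeCore_coprime
      rw [hO, le_bot_iff] at h2
      exact (Subgroup.map_eq_bot_iff_of_injective _ L.subtype_injective).mp h2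
    intro y hy
    obtain ⟨l, hl, k, hk, hlk⟩ := hKdec ⟨y, hy⟩
    rw [hKbot, Subgroup.mem_bot] at hk
    rw [hk, mul_one] at hlk
    have : (l : G) ∈ W := hl
    rw [← hlk] at this
    exact this
  rcases mem_zpowers_of_orderOf_two hw (hLW hcL) with h2 | h2
  · exact h2
  · exfalso
    have h3 := isolated_odd_mul hx g
    rw [← comm_eq_mul_conj hx g, h2, hw] at h3
    exact absurd h3 (by decide)

/-- The induction hypothesis applied inside the centralizer of `w`. -/
theorem zstar_centralizer {G : Type u} [Group G] [Finite G] (ih : ZIH.{u} (Nat.card G)) (y : G)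
    (hy : Cfsg.IsIsolatedInvolution y) (w : G) (hw : Subgroup.centralizer ({w} : Set G) ≠ ⊤)
    (hyw : Commute y w) (c : G) (hc : Commute c w) :
    y * c * y⁻¹ * c⁻¹ ∈ Cfsg.centralizerPPrimeCore 2 w := by
  have hyC : y ∈ Subgroup.centralizer ({w} : Set G) := Subgroup.mem_centralizer_singleton_iff.mpr hyw
  have hcC : c ∈ Subgroup.centralizer ({w} : Set G) := Subgroup.mem_centralizer_singleton_iff.mpr hc
  have h1 := ih _ (card_subgroup_lt _ hw) _ (isolated_subgroup hy _ hyC) ⟨c, hcC⟩
  exact ⟨_, h1, rfl⟩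

theorem card_centralizerPPrimeCore_coprime {G : Type u} [Group G] [Finite G] (w : G) :
    (Nat.card (Cfsg.centralizerPPrimeCore 2 w)).Coprime 2 := by
  unfold Cfsg.centralizerPPrimeCore
  rw [Subgroup.card_map_of_injective (Subgroup.subtype_injective _)]
  exact card_pPrimeCore_coprime

end Cfsg.Agent.Lib.Helper58
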