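import Mathlib
import Cfsg.Agent.Lib.Helper58.ZStarRed
import Cfsg.Agent.S0942
import Cfsg.Agent.S0925
import Cfsg.Agent.S1182
import Cfsg.Agent.Lib.Helper82.CharKer
import Cfsg.Agent.Lib.Helper4.CharBasic
import Cfsg.Agent.Lib.Helper81.ClassAlg

set_option autoImplicit false

namespace Cfsg.Agent.Lib.Helper58

open Cfsg Cfsg.Agent.Lib.Helper25 Cfsg.Agent.Lib.Helper14

universe u

theorem sq_eq_one_of_orderOf_two {G : Type u} [Group G] {t : G} (ht : orderOf t = 2) : t * t = 1 := by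
  have := pow_orderOf_eq_one t
  rwa [ht, pow_two] at this

/-- Key step: characters of the principal 2-block are constant on `x * t^G`. -/
theorem zstar_char_const {G : Type u} [Group G] [Finite G] (ih : ZIH.{u} (Nat.card G)) (x : G)
    (hx : IsIsolatedInvolution x)
    (hnc : ∀ w : G, orderOf w = 2 → Subgroup.centralizer ({w} : Set G) ≠ ⊤)
    (t : G) (ht : orderOf t = 2) (htx : Commute t x) (hne : t ≠ x)
    (M : Ideal AlgInt) (hM : IsPModular 2 M) (χ : IrrCharacter G) (hχ : χ ∈ principalBlock M G)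
    (s : G) : (χ : G → ℂ) (x * (s * t * s⁻¹)) = (χ : G → ℂ) (x * t) := by
  have : Fact (Nat.Prime 2) := ⟨Nat.prime_two⟩
  have hxx := isolated_sq hx
  have htt := sq_eq_one_of_orderOf_two ht
  set v := s * t * s⁻¹ with hv
  have hvv : v * v = 1 := conj_sq htt s
  have hnodd : ¬ Odd (orderOf (x * v)) := by
    intro h
    obtain ⟨c, hc⟩ := conj_of_odd_mul hxx hvv h
    exact not_conj_of_commute hx htx hne s c hc.symm
  rw [Nat.not_odd_iff_even] at hnodd
  obtain ⟨m, hm⟩ := hnodd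
  have hm2 : orderOf (x * v) = 2 * m := by omega
  have hmpos : 0 < m := by
    have := orderOf_pos (x * v)
    omega
  obtain ⟨hw2, hwx, hwv⟩ := dihedral_central hxx hvv hm2 hmpos
  set w := (x * v) ^ m with hw
  have ha2 : (x * v) ^ 2 = x * v * x⁻¹ * v⁻¹ := by
    rw [inv_eq_of_mul_eq_one_left hxx, inv_eq_of_mul_eq_one_left hvv, pow_two]; group
  have hmem : (x * v) ^ 2 ∈ centralizerPPrimeCore 2 w := by
    rw [ha2]
    exact zstar_centralizer ih x hx w (hnc w hw2) hwx.symm v hwv.symm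
  have hmodd : Odd m := by
    have h1 : orderOf ((x * v) ^ 2) = m := by
      rw [orderOf_pow' _ (by norm_num), hm2]
      simp
    have h2 : orderOf ((x * v) ^ 2) ∣ Nat.card (centralizerPPrimeCore 2 w) := by
      have := orderOf_dvd_natCard (⟨_, hmem⟩ : centralizerPPrimeCore 2 w)
      rwa [Subgroup.orderOf_mk] at this
    rw [h1] at h2
    have h3 := Nat.Coprime.coprime_dvd_left h2 (card_centralizerPPrimeCore_coprime w)
    exact Nat.Coprime.odd_of_right h3
  obtain ⟨⟨i, hi⟩, c, hc⟩ := dihedral_twice_odd hxx hvv hm2 hmodd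
  have hy : ((x * v) ^ 2) ^ i ∈ centralizerPPrimeCore 2 w := Subgroup.pow_mem _ hmem i
  have h1 : (χ : G → ℂ) (x * v) = (χ : G → ℂ) w := by
    rw [hi]
    exact Cfsg.Agent.S0942.result 2 M hM w ⟨1, by rw [hw2, pow_one]⟩ _ hy χ hχ
  rw [h1]
  have hconj : (c * s) * t * (c * s)⁻¹ = x * w := by
    rw [← hc, hv]; group
  have hxw : Commute (x * w) x := (Commute.refl x).mul_left hwx
  obtain ⟨k, -, hkx, hk⟩ := Cfsg.Agent.S1182.result x hx ⊤ (Subgroup.le_normalizer (Subgroup.mem_top x)) t (x * w)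
    (Subgroup.mem_top _) (Subgroup.mem_top _) htx hxw (c * s) (Subgroup.mem_top _) hconj
  have hw' : w = k * (x * t) * k⁻¹ := by
    calc w = x * (x * w) := by rw [← mul_assoc, hxx, one_mul]
      _ = x * (k * t * k⁻¹) := by rw [hk]
      _ = (x * k) * t * k⁻¹ := by group
      _ = (k * x) * t * k⁻¹ := by rw [hkx.eq]
      _ = k * (x * t) * k⁻¹ := by group
  rw [hw']
  exact Cfsg.Agent.Lib.Helper82.isChar_conj_eq (Cfsg.Agent.Lib.Helper82.isIrr_isChar χ.2) _ _

/-- `χ(x) χ(t) = χ(1) χ(x t)` for `χ` in the principal 2-block. -/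
theorem zstar_char_mul {G : Type u} [Group G] [Finite G] (ih : ZIH.{u} (Nat.card G)) (x : G)
    (hx : IsIsolatedInvolution x)
    (hnc : ∀ w : G, orderOf w = 2 → Subgroup.centralizer ({w} : Set G) ≠ ⊤)
    (t : G) (ht : orderOf t = 2) (htx : Commute t x) (hne : t ≠ x)
    (M : Ideal AlgInt) (hM : IsPModular 2 M) (χ : IrrCharacter G) (hχ : χ ∈ principalBlock M G) :
    (χ : G → ℂ) x * (χ : G → ℂ) t = (χ : G → ℂ) 1 * (χ : G → ℂ) (x * t) := by
  have := Fintype.ofFinite G
  have h1 := Cfsg.Agent.Lib.Helper81.sum_char_conj_mul χ.2 x t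
  have h2 : ∑ s : G, (χ : G → ℂ) (x * (s * t * s⁻¹)) = (Nat.card G : ℂ) * (χ : G → ℂ) (x * t) := by
    rw [Finset.sum_congr rfl (fun s _ => zstar_char_const ih x hx hnc t ht htx hne M hM χ hχ s)]
    simp [Nat.card_eq_fintype_card]
  rw [h2] at h1
  have h10 := Cfsg.Agent.Lib.Helper81.irr_one_ne_zero χ.2
  have hG : (Nat.card G : ℂ) ≠ 0 := by
    have : 0 < Nat.card G := Nat.card_pos
    exact_mod_cast this.ne'
  rw [eq_div_iff h10] at h1
  have h3 : (Nat.card G : ℂ) * ((χ : G → ℂ) 1 * (χ : G → ℂ) (x * t)) =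
      (Nat.card G : ℂ) * ((χ : G → ℂ) x * (χ : G → ℂ) t) := by
    linear_combination h1
  exact (mul_left_cancel₀ hG h3).symm

/-- `χ(t) ≠ 0 ⇒ χ(x) = ± χ(1)`. -/
theorem zstar_char_pm {G : Type u} [Group G] [Finite G] (ih : ZIH.{u} (Nat.card G)) (x : G)
    (hx : IsIsolatedInvolution x)
    (hnc : ∀ w : G, orderOf w = 2 → Subgroup.centralizer ({w} : Set G) ≠ ⊤)
    (t : G) (ht : orderOf t = 2) (htx : Commute t x) (hne : t ≠ x)
    (M : Ideal AlgInt) (hM : IsPModular 2 M) (χ : IrrCharacter G) (hχ : χ ∈ principalBlock M G) :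
    (χ : G → ℂ) t = 0 ∨ (χ : G → ℂ) x = (χ : G → ℂ) 1 ∨ (χ : G → ℂ) x = - (χ : G → ℂ) 1 := by
  have hxx := isolated_sq hx
  have htt := sq_eq_one_of_orderOf_two ht
  have h1 := zstar_char_mul ih x hx hnc t ht htx hne M hM χ hχ
  have hxt2 : orderOf (x * t) = 2 := by
    apply orderOf_eq_prime
    · rw [pow_two]
      calc x * t * (x * t) = x * (t * x) * t := by group
        _ = x * (x * t) * t := by rw [htx.eq]
        _ = (x * x) * (t * t) := by group
        _ = 1 := by rw [hxx, htt, one_mul]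
    · intro h
      apply hne
      calc t = x * (x * t) := by rw [← mul_assoc, hxx, one_mul]
        _ = x := by rw [h, mul_one]
  have hxtx : Commute (x * t) x := (Commute.refl x).mul_left htx
  have hxtne : x * t ≠ x := by
    intro h
    have : t = 1 := by simpa using h
    rw [this, orderOf_one] at ht
    omega
  have h2 := zstar_char_mul ih x hx hnc (x * t) hxt2 hxtx hxtne M hM χ hχ
  rw [← mul_assoc, hxx, one_mul] at h2
  by_cases h0 : (χ : G → ℂ) t = 0
  · left; exact h0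
  · right
    have h3 : ((χ : G → ℂ) x - (χ : G → ℂ) 1) * ((χ : G → ℂ) x + (χ : G → ℂ) 1) * (χ : G → ℂ) t = 0 := by
      linear_combination (χ : G → ℂ) x * h1 + (χ : G → ℂ) 1 * h2
    rcases mul_eq_zero.mp h3 with h4 | h4
    · rcases mul_eq_zero.mp h4 with h5 | h5
      · left; exact sub_eq_zero.mp h5
      · right; exact eq_neg_of_add_eq_zero_left h5
    · exact absurd h4 h0

end Cfsg.Agent.Lib.Helper58
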