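import Mathlib
import Cfsg.Agent.Lib.Helper25.ZStarMain
import Cfsg.Agent.Lib.Helper1.Coprime3

set_option autoImplicit false

/-! Consequences of Glauberman's Z*-theorem for invariant `p`-subgroups. -/

namespace Cfsg.Agent.Lib.Helper58

open Cfsg Cfsg.Agent.Lib.Helper25 Cfsg.Agent.Lib.Helper1

variable {G : Type*} [Group G]

/-- Decomposition `q = k c` inside a `z`-invariant subgroup: `k` inverted by `z`, of odd order and
in `O(G)`, `c` centralizing `z`. -/
theorem isolated_decomp [Finite G] {z : G} (hz : IsIsolatedInvolution z) (Q : Subgroup G)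
    (hzQ : z ∈ Subgroup.normalizer (Q : Set G)) {q : G} (hq : q ∈ Q) :
    ∃ k c : G, k ∈ Q ∧ k ∈ pPrimeCore 2 G ∧ Odd (orderOf k) ∧ z * k * z⁻¹ = k⁻¹ ∧ c ∈ Q ∧
      c ∈ Subgroup.centralizer ({z} : Set G) ∧ q = k * c := by
  obtain ⟨k, hko, hkinv, hkz, hkm⟩ := isolated_exists_K hz q
  have hN := (Cfsg.Agent.Lib.Helper40.pPrimeCore_mem 2 G).1
  have hzi := isolated_inv hz
  have e1 : z * (q * z * q⁻¹) = (z * q * z⁻¹) * q⁻¹ := by
    rw [hzi]; group
  have h1 : z * (q * z * q⁻¹) ∈ Q := by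
    rw [e1]
    exact Q.mul_mem ((Subgroup.mem_normalizer_iff.mp hzQ q).mp hq) (Q.inv_mem hq)
  have h2 : z * (q * z * q⁻¹) ∈ pPrimeCore 2 G := by
    have h3 := glauberman_zstar hz q
    have e2 : z * (q * z * q⁻¹) = z * (q * z * q⁻¹ * z⁻¹) * z⁻¹ := by
      rw [hzi]
      have hzz := isolated_sq hz
      calc z * (q * z * q⁻¹) = z * (q * z * q⁻¹) * (z * z) := by rw [hzz, mul_one]
        _ = z * (q * z * q⁻¹ * z) * z := by group
    rw [e2]
    exact hN.conj_mem _ h3 z
  have hkQ : k ∈ Q := (Subgroup.zpowers_le.mpr h1) hkm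
  have hkN : k ∈ pPrimeCore 2 G := (Subgroup.zpowers_le.mpr h2) hkm
  refine ⟨k, k⁻¹ * q, hkQ, hkN, hko, hkinv, Q.mul_mem (Q.inv_mem hkQ) hq, ?_, by group⟩
  rw [Subgroup.mem_centralizer_singleton_iff]
  have : k⁻¹ * q * z = k⁻¹ * (q * z * q⁻¹) * q := by group
  rw [this, ← hkz]; group


/-- `G = O(G) C_G(z)`: the centralizer of an isolated involution covers `G / O(G)`. -/
theorem isolated_centralizer_surjective [Finite G] {z : G} (hz : IsIsolatedInvolution z) :
    Function.Surjective ((QuotientGroup.mk' (pPrimeCore 2 G)).comp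
      (Subgroup.centralizer ({z} : Set G)).subtype) := by
  intro x
  obtain ⟨g, rfl⟩ := QuotientGroup.mk'_surjective _ x
  obtain ⟨k, c, -, hkN, -, -, -, hc, hg⟩ := isolated_decomp hz ⊤
    (by rw [Subgroup.mem_normalizer_iff]; intro h; simp) (Subgroup.mem_top g)
  refine ⟨⟨c, hc⟩, ?_⟩
  simp only [MonoidHom.comp_apply, Subgroup.coe_subtype, QuotientGroup.mk'_apply]
  rw [hg, QuotientGroup.eq]
  have : c⁻¹ * (k * c) = c⁻¹ * k * c⁻¹⁻¹ := by group
  rw [this]
  exact (Cfsg.Agent.Lib.Helper40.pPrimeCore_mem 2 G).1.conj_mem _ hkN _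

/-- For an isolated involution `z`, an odd prime `p` and a `p`-subgroup `R0` of `C(z)` there is a
`z`-invariant subgroup `X ≥ O(G)` of odd order and of index prime to `p` containing a Sylow
`p`-subgroup `R ≥ R0` of `C(z)`. -/
theorem exists_odd_invariant_overgroup [Finite G] {z : G} (hz : IsIsolatedInvolution z) {p : ℕ}
    [Fact p.Prime] (hp : p ≠ 2) (R0 : Subgroup G) (hR0 : IsPGroup p R0)
    (hR0C : R0 ≤ Subgroup.centralizer ({z} : Set G)) :
    ∃ X R : Subgroup G, pPrimeCore 2 G ≤ X ∧ R0 ≤ R ∧ R ≤ X ∧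
      IsSylowIn p R (Subgroup.centralizer ({z} : Set G)) ∧
      z ∈ Subgroup.normalizer (X : Set G) ∧
      (Nat.card (Subgroup.zpowers z)).Coprime (Nat.card X) ∧ ¬ p ∣ X.index := by
  have hN := (Cfsg.Agent.Lib.Helper40.pPrimeCore_mem 2 G).1
  set N := pPrimeCore 2 G with hNdef
  set C := Subgroup.centralizer ({z} : Set G) with hC
  have hf := isolated_centralizer_surjective hz
  set f := (QuotientGroup.mk' N).comp C.subtype with hfdef
  have hR0' : IsPGroup p (R0.subgroupOf C) :=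
    hR0.of_equiv (Subgroup.subgroupOfEquivOfLe hR0C).symm
  obtain ⟨P', hP'⟩ := hR0'.exists_le_sylow
  set Pb : Sylow p (G ⧸ N) := P'.mapSurjective hf with hPb
  have hPbc : (Pb : Subgroup (G ⧸ N)) = (P' : Subgroup C).map f := rfl
  refine ⟨(Pb : Subgroup (G ⧸ N)).comap (QuotientGroup.mk' N), (P' : Subgroup C).map C.subtype,
    ?_, ?_, ?_, sylow_map_isSylowIn P', ?_, ?_, ?_⟩
  · intro n hn
    rw [Subgroup.mem_comap]
    have : QuotientGroup.mk' N n = 1 := by
      rw [QuotientGroup.mk'_apply, QuotientGroup.eq_one_iff]; exact hn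
    rw [this]; exact Subgroup.one_mem _
  · intro r hr
    exact ⟨⟨r, hR0C hr⟩, hP' (Subgroup.mem_subgroupOf.mpr hr), rfl⟩
  · rintro _ ⟨r, hr, rfl⟩
    rw [Subgroup.mem_comap, hPbc]
    exact ⟨r, hr, rfl⟩
  · rw [Subgroup.mem_normalizer_iff]
    intro h
    have : QuotientGroup.mk' N (z * h * z⁻¹) = QuotientGroup.mk' N h := by
      rw [QuotientGroup.mk'_apply, QuotientGroup.mk'_apply, QuotientGroup.eq]
      have h3 := glauberman_zstar hz h⁻¹
      have e : (z * h * z⁻¹)⁻¹ * h = z * (h⁻¹ * z * h⁻¹⁻¹ * z⁻¹) * z⁻¹ := by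
        rw [isolated_inv hz]
        have hzz := isolated_sq hz
        calc (z * h * z)⁻¹ * h = z⁻¹ * h⁻¹ * z⁻¹ * h := by group
          _ = z * h⁻¹ * z * h := by rw [isolated_inv hz]
          _ = z * h⁻¹ * z * h * (z * z) := by rw [hzz, mul_one]
          _ = z * (h⁻¹ * z * h⁻¹⁻¹ * z) * z := by group
      rw [e]
      exact hN.conj_mem _ h3 z
    rw [Subgroup.mem_comap, Subgroup.mem_comap, this]
  · rw [Nat.card_zpowers, hz.1, Nat.coprime_two_left]
    by_contra hodd
    rw [Nat.not_odd_iff_even, even_iff_two_dvd] at hodd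
    obtain ⟨x, hx⟩ := exists_prime_orderOf_dvd_card' (G := ↥((Pb : Subgroup (G ⧸ N)).comap
      (QuotientGroup.mk' N))) 2 hodd
    have hx2 : orderOf (x : G) = 2 := by rw [Subgroup.orderOf_coe]; exact hx
    have hxm : QuotientGroup.mk' N (x : G) ∈ (Pb : Subgroup (G ⧸ N)) := x.2
    obtain ⟨k, hk⟩ := (IsPGroup.iff_orderOf.mp Pb.2) ⟨_, hxm⟩
    rw [Subgroup.orderOf_mk] at hk
    have h1 : orderOf (QuotientGroup.mk' N (x : G)) ∣ 2 := by
      rw [← hx2]; exact orderOf_map_dvd _ _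
    have h2 : orderOf (QuotientGroup.mk' N (x : G)) = 1 := by
      rcases (Nat.dvd_prime Nat.prime_two).mp h1 with h | h
      · exact h
      · exfalso
        rw [h] at hk
        have h3 : p ∣ 2 := by
          rcases Nat.eq_zero_or_pos k with rfl | hk0
          · simp at hk
          · rw [hk]; exact dvd_pow_self p hk0.ne'
        exact hp ((Nat.prime_dvd_prime_iff_eq Fact.out Nat.prime_two).mp h3)
    rw [orderOf_eq_one_iff, QuotientGroup.mk'_apply, QuotientGroup.eq_one_iff] at h2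
    have h4 : orderOf (⟨(x : G), h2⟩ : N) ∣ Nat.card N := orderOf_dvd_natCard _
    rw [Subgroup.orderOf_mk, hx2] at h4
    exact (Nat.not_even_iff_odd.mpr odd_card_pPrimeCore) (even_iff_two_dvd.mpr h4)
  · rw [Subgroup.index_comap_of_surjective _ (QuotientGroup.mk'_surjective N)]
    exact Pb.not_dvd_index

end Cfsg.Agent.Lib.Helper58
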