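import Mathlib
import Cfsg.Agent.Lib.Helper58.ZStarChar
import Cfsg.Agent.Lib.Helper78.DefectZero
import Cfsg.Agent.S0016

set_option autoImplicit false

namespace Cfsg.Agent.Lib.Helper58

open Cfsg Cfsg.Agent.Lib.Helper25 Cfsg.Agent.Lib.Helper14

universe u

/-- There is a non-principal character in the principal 2-block having `x` in its kernel. -/
theorem zstar_exists_char {G : Type u} [Group G] [Finite G] (ih : ZIH.{u} (Nat.card G)) (x : G)
    (hx : IsIsolatedInvolution x)
    (hnc : ∀ w : G, orderOf w = 2 → Subgroup.centralizer ({w} : Set G) ≠ ⊤)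
    (t : G) (ht : orderOf t = 2) (htx : Commute t x) (hne : t ≠ x) :
    ∃ χ : IrrCharacter G, (χ : G → ℂ) ≠ (fun _ => 1) ∧ (χ : G → ℂ) x = (χ : G → ℂ) 1 := by
  have : Fact (Nat.Prime 2) := ⟨Nat.prime_two⟩
  have := Fintype.ofFinite G
  obtain ⟨M, hM⟩ := Cfsg.Agent.Lib.Helper78.exists_isPModular Nat.prime_two
  by_contra hcon
  push Not at hcon
  set triv : IrrCharacter G := ⟨fun _ => 1, Cfsg.Agent.Lib.Helper4.isIrrCharacter_one⟩ with htriv
  have hB : IsPBlock M (principalBlock M G) := ⟨triv, rfl⟩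
  have htrivB : triv ∈ principalBlock M G := by
    intro g
    rw [sub_self]
    exact Cfsg.Agent.Lib.Helper81.memLocalIdeal_zero hM
  have orth := (Cfsg.Agent.S0925.result (G := G) 2 M hM).2
  have hPt : IsPPart 2 t t := ⟨1, mul_one t, Commute.one_right t, ⟨1, by rw [ht, pow_one]⟩, by simp⟩
  have hP1 : IsPPart 2 (1 : G) 1 := ⟨1, mul_one 1, Commute.one_right 1, ⟨0, by simp⟩, by simp⟩
  have hPx : IsPPart 2 x x := ⟨1, mul_one x, Commute.one_right x, ⟨1, by rw [hx.1, pow_one]⟩, by simp⟩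
  have hn1 : ¬ IsConj t 1 := by
    intro h
    have : t = 1 := by
      rw [isConj_comm, isConj_one_right] at h
      exact h
    rw [this, orderOf_one] at ht
    omega
  have hnx : ¬ IsConj t x := by
    intro h
    obtain ⟨c, hc⟩ := isConj_iff.mp h
    exact not_conj_of_commute hx htx hne c 1 (by simpa using hc)
  have h1 := orth t 1 t 1 hPt hP1 hn1 _ hB
  have h2 := orth t x t x hPt hPx hnx _ hB
  have hfin : (principalBlock M G).Finite := by
    have := Cfsg.Agent.Lib.Helper20.finite_irrCharacter (G := G)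
    exact Set.toFinite _
  have h3 : ∑ᶠ χ ∈ principalBlock M G,
      ((χ : G → ℂ) t * (χ : G → ℂ) 1⁻¹ + (χ : G → ℂ) t * (χ : G → ℂ) x⁻¹) = 0 := by
    rw [finsum_mem_add_distrib hfin, h1, h2, add_zero]
  have h4 : ∑ᶠ χ ∈ principalBlock M G,
      ((χ : G → ℂ) t * (χ : G → ℂ) 1⁻¹ + (χ : G → ℂ) t * (χ : G → ℂ) x⁻¹) =
      ∑ᶠ χ ∈ ({triv} : Set (IrrCharacter G)),
      ((χ : G → ℂ) t * (χ : G → ℂ) 1⁻¹ + (χ : G → ℂ) t * (χ : G → ℂ) x⁻¹) := by
    apply finsum_mem_inter_support_eq'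
    intro χ hχs
    constructor
    · intro hχB
      rw [Set.mem_singleton_iff]
      by_contra hχt
      apply hχs
      have hχne : (χ : G → ℂ) ≠ fun _ => 1 := fun h => hχt (Subtype.ext h)
      have hχx := hcon χ hχne
      rw [inv_one, isolated_inv hx]
      rcases zstar_char_pm ih x hx hnc t ht htx hne M hM χ hχB with h | h | h
      · rw [h]; ring
      · exact absurd h hχx
      · rw [h]; ring
    · intro h
      rw [Set.mem_singleton_iff] at h
      rw [h]; exact htrivB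
  rw [h4, finsum_mem_singleton] at h3
  simp only [htriv] at h3
  norm_num at h3

/-- The case where `C(x)` contains an involution `t ≠ x`. -/
theorem zstar_case_four {G : Type u} [Group G] [Finite G] (ih : ZIH.{u} (Nat.card G)) (x : G)
    (hx : IsIsolatedInvolution x) (hO : pPrimeCore 2 G = ⊥)
    (hnc : ∀ w : G, orderOf w = 2 → Subgroup.centralizer ({w} : Set G) ≠ ⊤)
    (t : G) (ht : orderOf t = 2) (htx : Commute t x) (hne : t ≠ x) :
    ∀ g : G, x * g * x⁻¹ * g⁻¹ = 1 := by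
  have := Fintype.ofFinite G
  obtain ⟨χ, hχ1, hχx⟩ := zstar_exists_char ih x hx hnc t ht htx hne
  have hχc := Cfsg.Agent.Lib.Helper82.isIrr_isChar χ.2
  set N := Cfsg.Agent.Lib.Helper82.charKer (χ : G → ℂ) hχc with hN
  have hNn : N.Normal := inferInstance
  have hxN : x ∈ N := hχx
  have hNtop : N ≠ ⊤ := by
    intro h
    have hall : ∀ g : G, (χ : G → ℂ) g = (χ : G → ℂ) 1 := by
      intro g
      have : g ∈ N := by rw [h]; trivial
      exact this
    have h0 := Cfsg.Agent.Lib.Helper20.classInner_irr_ne χ.2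
      (Cfsg.Agent.Lib.Helper4.isIrrCharacter_one (G := G)) hχ1
    have h10 := Cfsg.Agent.Lib.Helper81.irr_one_ne_zero χ.2
    apply h10
    have hG : (Nat.card G : ℂ) ≠ 0 := by
      have : 0 < Nat.card G := Nat.card_pos
      exact_mod_cast this.ne'
    simp only [classInner, hall, map_one, mul_one, Finset.sum_const, Finset.card_univ,
      nsmul_eq_mul, ← Nat.card_eq_fintype_card] at h0
    rw [← mul_assoc, inv_mul_cancel₀ hG, one_mul] at h0
    exact h0
  have hcomm : ∀ n ∈ N, x * n * x⁻¹ * n⁻¹ = 1 := by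
    intro n hn
    have h1 := ih N (card_subgroup_lt N hNtop) _ (isolated_subgroup hx N hxN) ⟨n, hn⟩
    have h2 : x * n * x⁻¹ * n⁻¹ ∈ (pPrimeCore 2 N).map N.subtype := ⟨_, h1, rfl⟩
    have h3 := map_subtype_pPrimeCore_le (p := 2) N h2
    rwa [hO, Subgroup.mem_bot] at h3
  intro g
  have h1 : g * x * g⁻¹ ∈ N := hNn.conj_mem x hxN g
  have h2 := hcomm _ h1
  have h3 : Commute x (g * x * g⁻¹) := by
    show x * (g * x * g⁻¹) = (g * x * g⁻¹) * x
    calc x * (g * x * g⁻¹) = (x * (g * x * g⁻¹) * x⁻¹ * (g * x * g⁻¹)⁻¹) * ((g * x * g⁻¹) * x) := by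
          group
      _ = (g * x * g⁻¹) * x := by rw [h2, one_mul]
  have h4 := hx.2 g h3
  rw [comm_eq_mul_conj hx, h4]
  exact isolated_sq hx

end Cfsg.Agent.Lib.Helper58
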