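import Mathlib
import Cfsg.Agent.Lib.Helper58.ZStarMain

set_option autoImplicit false

namespace Cfsg.Agent.Lib.Helper58

open Cfsg Cfsg.Agent.Lib.Helper25 Cfsg.Agent.Lib.Helper14

universe u

/-- The Brauer–Suzuki theorem (statement S0201) for the groups of the universe `u`. -/
def BSHyp : Prop :=
  ∀ (G : Type u) [Group G] [Finite G] (S : Sylow 2 G) (n : ℕ)
    (_ : (S : Subgroup G) ≃* QuaternionGroup (2 ^ (n + 1)))
    (_ : ∀ N : Subgroup G, N.Normal → Odd (Nat.card N) → N = ⊥), Nat.card (Subgroup.center G) = 2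

/-- A group with `O(G) = 1` and cyclic Sylow 2-subgroups (of even order) is abelian. -/
theorem comm_of_cyclic_sylow {G : Type u} [Group G] [Finite G] (hO : pPrimeCore 2 G = ⊥)
    (S : Sylow 2 G) (hS : IsCyclic (S : Subgroup G)) (h2 : 2 ∣ Nat.card G) (a b : G) :
    a * b = b * a := by
  have : Fact (Nat.Prime 2) := ⟨Nat.prime_two⟩
  have hmin : (Nat.card G).minFac = 2 := (Nat.minFac_eq_two_iff _).mpr h2
  obtain ⟨K, hKn, hKc, hKd⟩ : ∃ K : Subgroup G, K.Normal ∧ K.IsComplement' (S : Subgroup G) ∧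
      ¬ 2 ∣ Nat.card K :=
    ⟨_, MonoidHom.normal_ker _, hS.isComplement' hmin,
      MonoidHom.not_dvd_card_ker_transferSylow S (hS.normalizer_le_centralizer hmin)⟩
  have hK : K = ⊥ := by
    have h1 : K ≤ pPrimeCore 2 G :=
      le_pPrimeCore hKn ((Nat.Prime.coprime_iff_not_dvd Nat.prime_two).mpr hKd).symm
    rwa [hO, le_bot_iff] at h1
  rw [hK, Subgroup.isComplement'_bot_left] at hKc
  have ha : a ∈ (S : Subgroup G) := by rw [hKc]; trivial
  have hb : b ∈ (S : Subgroup G) := by rw [hKc]; trivial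
  obtain ⟨g0, hg0⟩ := hS.exists_generator
  obtain ⟨i, hi⟩ := Subgroup.mem_zpowers_iff.mp (hg0 ⟨a, ha⟩)
  obtain ⟨j, hj⟩ := Subgroup.mem_zpowers_iff.mp (hg0 ⟨b, hb⟩)
  have h3 : (⟨a, ha⟩ : (S : Subgroup G)) * ⟨b, hb⟩ = ⟨b, hb⟩ * ⟨a, ha⟩ := by
    rw [← hi, ← hj]
    exact ((Commute.refl g0).zpow_zpow i j).eq
  exact congrArg Subtype.val h3

/-- The case where `x` is the only involution of `C(x)`. -/
theorem zstar_case_unique (BS : BSHyp.{u}) {G : Type u} [Group G] [Finite G]
    (ih : ZIH.{u} (Nat.card G)) (x : G) (hx : IsIsolatedInvolution x) (hO : pPrimeCore 2 G = ⊥)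
    (huniq : ∀ t : G, orderOf t = 2 → Commute t x → t = x) : ∀ g : G, x * g * x⁻¹ * g⁻¹ = 1 := by
  have : Fact (Nat.Prime 2) := ⟨Nat.prime_two⟩
  have hxp : IsPGroup 2 (Subgroup.zpowers x) :=
    IsPGroup.of_card (n := 1) (by rw [Nat.card_zpowers, hx.1, pow_one])
  obtain ⟨S, hS⟩ := hxp.exists_le_sylow
  have hxS : x ∈ (S : Subgroup G) := hS (Subgroup.mem_zpowers x)
  have h2G : 2 ∣ Nat.card G := by rw [← hx.1]; exact orderOf_dvd_natCard x
  have hcyc_case : IsCyclic (S : Subgroup G) → ∀ g : G, x * g * x⁻¹ * g⁻¹ = 1 := by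
    intro hc g
    rw [comm_of_cyclic_sylow hO S hc h2G x g]; group
  have hSnt : Nontrivial (S : Subgroup G) :=
    ⟨⟨x, hxS⟩, 1, fun h => isolated_ne_one hx (congrArg Subtype.val h)⟩
  have hcen : Nontrivial (Subgroup.center (S : Subgroup G)) := S.2.center_nontrivial
  have hdvd : 2 ∣ Nat.card (Subgroup.center (S : Subgroup G)) := by
    obtain ⟨k, hk⟩ := (S.2.to_subgroup (Subgroup.center (S : Subgroup G))).exists_card_eq
    have h1 : 1 < Nat.card (Subgroup.center (S : Subgroup G)) := Finite.one_lt_card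
    rw [hk] at h1 ⊢
    rcases Nat.eq_zero_or_pos k with rfl | hk0
    · simp at h1
    · exact dvd_pow_self 2 hk0.ne'
  obtain ⟨z, hz⟩ := exists_prime_orderOf_dvd_card' (G := Subgroup.center (S : Subgroup G)) 2 hdvd
  have hzx : ((z : (S : Subgroup G)) : G) = x := by
    apply huniq
    · rw [Subgroup.orderOf_coe, Subgroup.orderOf_coe, hz]
    · have := (Subgroup.mem_center_iff.mp z.2) ⟨x, hxS⟩
      exact (congrArg Subtype.val this).symm
  have hinv : ∀ τ : (S : Subgroup G), orderOf τ = 2 → τ = ⟨x, hxS⟩ := by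
    intro τ hτ
    apply Subtype.ext
    apply huniq
    · rw [Subgroup.orderOf_coe, hτ]
    · have := (Subgroup.mem_center_iff.mp z.2) τ
      have h2 := congrArg Subtype.val this
      simp only [Subgroup.coe_mul, hzx] at h2
      exact h2
  have hkey : ∀ H : Subgroup (S : Subgroup G), Nat.card H = 2 →
      H = Subgroup.zpowers (⟨x, hxS⟩ : (S : Subgroup G)) := by
    intro H hH
    obtain ⟨h, hh⟩ := exists_prime_orderOf_dvd_card' (G := H) 2 (by rw [hH])
    have h1 : (h : (S : Subgroup G)) = ⟨x, hxS⟩ := hinv _ (by rw [Subgroup.orderOf_coe, hh])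
    symm
    apply Subgroup.eq_of_le_of_card_ge
    · rw [Subgroup.zpowers_le, ← h1]; exact h.2
    · rw [hH, Nat.card_zpowers, Subgroup.orderOf_mk, hx.1]
  have huq : ∀ H K : Subgroup (S : Subgroup G), Nat.card H = 2 → Nat.card K = 2 → H = K := by
    intro H K hH hK
    rw [hkey H hH, hkey K hK]
  rcases Cfsg.Agent.S0016.result 2 S.2 huq with hcyc | ⟨-, n, ⟨e⟩⟩
  · exact hcyc_case hcyc
  · rcases n with _ | k
    · rw [pow_zero] at e
      have := QuaternionGroup.quaternionGroup_one_isCyclic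
      exact hcyc_case (isCyclic_of_surjective e.symm e.symm.surjective)
    · have hO' : ∀ N : Subgroup G, N.Normal → Odd (Nat.card N) → N = ⊥ := by
        intro N hN hodd
        have h1 : N ≤ pPrimeCore 2 G := le_pPrimeCore hN (Nat.coprime_two_right.mpr hodd)
        rwa [hO, le_bot_iff] at h1
      have hc2 := BS G S k e hO'
      obtain ⟨w, hw⟩ := exists_prime_orderOf_dvd_card' (G := Subgroup.center G) 2 (by rw [hc2])
      exact zstar_central_invol ih x hx hO (w : G) (by rw [Subgroup.orderOf_coe, hw]) w.2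

theorem zstar_step (BS : BSHyp.{u}) {G : Type u} [Group G] [Finite G]
    (ih : ZIH.{u} (Nat.card G)) (x : G) (hx : IsIsolatedInvolution x) : ZConcl G x := by
  by_cases hO : pPrimeCore 2 G = ⊥
  · have key : ∀ g : G, x * g * x⁻¹ * g⁻¹ = 1 := by
      by_cases hc : ∃ w : G, orderOf w = 2 ∧ Subgroup.centralizer ({w} : Set G) = ⊤
      · obtain ⟨w, hw, hwc⟩ := hc
        refine zstar_central_invol ih x hx hO w hw ?_
        rw [Subgroup.mem_center_iff]
        intro g
        have : g ∈ Subgroup.centralizer ({w} : Set G) := by rw [hwc]; trivial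
        exact Subgroup.mem_centralizer_singleton_iff.mp this
      · push Not at hc
        by_cases ht : ∃ t : G, orderOf t = 2 ∧ Commute t x ∧ t ≠ x
        · obtain ⟨t, ht2, htx, hne⟩ := ht
          exact zstar_case_four ih x hx hO hc t ht2 htx hne
        · push Not at ht
          exact zstar_case_unique BS ih x hx hO ht
    intro g
    rw [key g]
    exact Subgroup.one_mem _
  · exact zstar_reduce_core ih x hx hO

theorem zstar_all (BS : BSHyp.{u}) : ∀ n : ℕ, ZIH.{u} n := by
  intro n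
  induction n using Nat.strong_induction_on with
  | _ n IH =>
    intro H _ _ hcard x hx
    exact zstar_step BS (IH _ hcard) x hx

/-- **Glauberman's `Z*`-theorem** (modulo the Brauer–Suzuki theorem): an isolated involution is central
modulo `O(G)`. -/
theorem zstar (BS : BSHyp.{u}) {G : Type u} [Group G] [Finite G] (x : G)
    (hx : IsIsolatedInvolution x) (g : G) : x * g * x⁻¹ * g⁻¹ ∈ pPrimeCore 2 G :=
  zstar_all BS (Nat.card G + 1) G (Nat.lt_succ_self _) x hx g

end Cfsg.Agent.Lib.Helper58
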